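import Cfsg.Agent.Lib.Helper97.OD7.Defs

set_option autoImplicit false

namespace Cfsg.Agent.Lib.Helper97.OD7

open QuadraticMap Module
open Cfsg.Agent.Lib.Helper95 (omG)
open Cfsg.Agent.Lib.Helper49

section

variable {F V : Type*} [Field F] [AddCommGroup V] [Module F V] {Q : QuadraticForm F V}

theorem c5_polar_hyp {e f : V} (he : Q e = 0) (hf : Q f = 0) (hef : polar Q e f = 1)
    (α β γ δ : F) : polar Q (α • e + β • f) (γ • e + δ • f) = α * δ + β * γ := by
  have hee : polar Q e e = 0 := by rw [polar_self, he]; simp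
  have hff : polar Q f f = 0 := by rw [polar_self, hf]; simp
  have hfe : polar Q f e = 1 := by rw [polar_comm]; exact hef
  rw [polar_add_left, polar_add_right, polar_add_right, polar_smul_left, polar_smul_left,
    polar_smul_left, polar_smul_left, polar_smul_right, polar_smul_right, polar_smul_right,
    polar_smul_right, hee, hff, hef, hfe]
  simp only [smul_eq_mul]
  ring

theorem c5_Q_hyp {e f : V} (he : Q e = 0) (hf : Q f = 0) (hef : polar Q e f = 1)
    (α β : F) : Q (α • e + β • f) = α * β := by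
  rw [Q_add_eq, QuadraticMap.map_smul, QuadraticMap.map_smul, he, hf, polar_smul_left,
    polar_smul_right, hef]
  simp only [smul_eq_mul]
  ring

end

variable {F V : Type*} [Field F] [Fintype F] [AddCommGroup V] [Module F V] [FiniteDimensional F V]
  {Q : QuadraticForm F V}

theorem btw_q5 (hq : Fintype.card F = 5) (hQ : (polarBilin Q).Nondegenerate) {t : ℕ} (ht : 4 ≤ t)
    (D : Fin t → Submodule F V)
    (horth : ∀ i j, i ≠ j → ∀ u ∈ D i, ∀ v ∈ D j, polar Q u v = 0)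
    (hnd : ∀ i, NDon Q (D i)) (hh : ∀ i, HypPl Q (D i)) : Btw Q D := by
  have h5 : (5 : F) = 0 := by
    have := Nat.cast_card_eq_zero F
    rw [hq] at this
    exact_mod_cast this
  have h2 : (2 : F) ≠ 0 := by
    intro h
    have : (5 : F) = 2 * 2 + 1 := by norm_num
    rw [this, h] at h5
    simp at h5
  have KP : ∀ i, ∀ x ∈ D i, ∀ y ∈ D i, Q x = 1 → Q y = 1 → y = x ∨ y = -x ∨ polar Q x y = 0 := by
    intro i x hx y hy hQx hQy
    obtain ⟨e, -, f, -, he, hf, hef, hsp⟩ := hh i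
    obtain ⟨α, β, rfl⟩ := hsp x hx
    obtain ⟨γ, δ, rfl⟩ := hsp y hy
    rw [c5_Q_hyp he hf hef] at hQx hQy
    rw [c5_polar_hyp he hf hef]
    have hα : α ≠ 0 := by rintro rfl; simp at hQx
    have hγ : γ ≠ 0 := by rintro rfl; simp at hQy
    have hβ : β = α⁻¹ := eq_inv_of_mul_eq_one_right hQx
    have hδ : δ = γ⁻¹ := eq_inv_of_mul_eq_one_right hQy
    obtain ⟨r, hr⟩ : ∃ r, r = γ * α⁻¹ := ⟨_, rfl⟩
    have hr0 : r ≠ 0 := hr ▸ mul_ne_zero hγ (inv_ne_zero hα)
    have hr4 : r ^ 4 = 1 := by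
      have := FiniteField.pow_card_sub_one_eq_one r hr0
      rwa [hq] at this
    have hγr : γ = r * α := by rw [hr]; field_simp
    have hfac : (r - 1) * ((r + 1) * (r ^ 2 + 1)) = 0 := by
      have : (r - 1) * ((r + 1) * (r ^ 2 + 1)) = r ^ 4 - 1 := by ring
      rw [this, hr4, sub_self]
    rcases mul_eq_zero.1 hfac with h | h
    · left
      have hr1 : r = 1 := sub_eq_zero.1 h
      rw [hδ, hβ, hγr, hr1, one_mul]
    · rcases mul_eq_zero.1 h with h | h
      · right; left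
        have hr1 : r = -1 := eq_neg_of_add_eq_zero_left h
        rw [hδ, hβ, hγr, hr1]
        simp only [neg_mul, one_mul, inv_neg, neg_smul, neg_add]
      · right; right
        rw [hδ, hβ, hγr]
        have : α * (r * α)⁻¹ + α⁻¹ * (r * α) = (r ^ 2 + 1) * r⁻¹ := by
          field_simp
          ring
        rw [this, h, zero_mul]
  have hex : ∀ i, ∃ x ∈ D i, ∃ y ∈ D i, Q x = 1 ∧ Q y = 1 ∧ polar Q x y = 0 := by
    intro i
    obtain ⟨e, heD, f, hfD, he, hf, hef, -⟩ := hh i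
    refine ⟨(1 : F) • e + (1 : F) • f, (D i).add_mem ((D i).smul_mem _ heD) ((D i).smul_mem _ hfD),
      (2 : F) • e + (3 : F) • f, (D i).add_mem ((D i).smul_mem _ heD) ((D i).smul_mem _ hfD),
      ?_, ?_, ?_⟩
    · rw [c5_Q_hyp he hf hef]; ring
    · rw [c5_Q_hyp he hf hef]
      have : (2 : F) * 3 = 5 + 1 := by norm_num
      rw [this, h5, zero_add]
    · rw [c5_polar_hyp he hf hef]
      have : (1 : F) * 3 + 1 * 2 = 5 := by norm_num
      rw [this, h5]
  obtain ⟨x₁, hx₁, x₂, hx₂, hQx₁, hQx₂, hx12⟩ := hex ⟨0, by omega⟩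
  obtain ⟨y₁, hy₁, -, -, hQy₁, -, -⟩ := hex ⟨1, by omega⟩
  obtain ⟨w, hw, -, -, hQw, -, -⟩ := hex ⟨2, by omega⟩
  obtain ⟨v, hv, -, -, hQv, -, -⟩ := hex ⟨3, by omega⟩
  exact ⟨frameSet Q D 1, frame_between hQ h2 D one_ne_zero horth KP
    (i₀ := ⟨0, by omega⟩) (i₁ := ⟨1, by omega⟩) (i₂ := ⟨2, by omega⟩) (i₃ := ⟨3, by omega⟩)
    (by simp) (by simp) (by simp) (by simp) (by simp) (by simp)
    hx₁ hx₂ hy₁ hw hv hQx₁ hQx₂ hQy₁ hQw hQv hx12⟩

end Cfsg.Agent.Lib.Helper97.OD7
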