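import Cfsg.Agent.Lib.Helper97.OD7.Tab

set_option autoImplicit false

namespace Cfsg.Agent.Lib.Helper97.OD7

open QuadraticMap Module
open Cfsg.Agent.Lib.Helper95 (omG)
open Cfsg.Agent.Lib.Helper49

variable {F V : Type*} [Field F] [Fintype F] [AddCommGroup V] [Module F V] [FiniteDimensional F V]
  {Q : QuadraticForm F V}

/-- the third part of `frame_between`, which needs only one vector of norm `c` in four members -/
theorem d3_third (hQ : (polarBilin Q).Nondegenerate) (h2 : (2 : F) ≠ 0) {t : ℕ}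
    (D : Fin t → Submodule F V) {c : F} (hc : c ≠ 0)
    (horth : ∀ i j, i ≠ j → ∀ u ∈ D i, ∀ v ∈ D j, polar Q u v = 0)
    {i₀ i₁ i₂ i₃ : Fin t} (h01 : i₀ ≠ i₁) (h02 : i₀ ≠ i₂) (h03 : i₀ ≠ i₃) (h12 : i₁ ≠ i₂)
    (h13 : i₁ ≠ i₃) (h23 : i₂ ≠ i₃)
    {x₁ y₁ w v : V} (hx₁ : x₁ ∈ D i₀) (hy₁ : y₁ ∈ D i₁) (hw : w ∈ D i₂)
    (hv : v ∈ D i₃) (hQx₁ : Q x₁ = c) (hQy₁ : Q y₁ = c) (hQw : Q w = c)
    (hQv : Q v = c) :
    ∃ g ∈ omG Q, g ∉ setStab (frameSet Q D c) := by
  obtain ⟨a, ha⟩ : ∃ a, a = x₁ + y₁ + w + v := ⟨_, rfl⟩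
  have p01 := horth i₀ i₁ h01 x₁ hx₁ y₁ hy₁
  have p02 := horth i₀ i₂ h02 x₁ hx₁ w hw
  have p03 := horth i₀ i₃ h03 x₁ hx₁ v hv
  have p12 := horth i₁ i₂ h12 y₁ hy₁ w hw
  have p13 := horth i₁ i₃ h13 y₁ hy₁ v hv
  have p23 := horth i₂ i₃ h23 w hw v hv
  have hQa : Q a = 4 * c := by
    rw [ha, Q_add_eq, Q_add_eq, Q_add_eq, hQx₁, hQy₁, hQw, hQv, p01, polar_add_left, p02, p12,
      polar_add_left, polar_add_left, p03, p13, p23]
    ring
  have h4c : (4 * c : F) ≠ 0 := by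
    have : (4 : F) = 2 * 2 := by norm_num
    rw [this]
    exact mul_ne_zero (mul_ne_zero h2 h2) hc
  have hQb : Q ((2 : F) • y₁) = 4 * c := by
    rw [QuadraticMap.map_smul, hQy₁]; ring
  refine ⟨(refl Q a * refl Q ((2 : F) • y₁)).1, ⟨_, refl_mul_refl_mem_commutator_of_eq Q hQ _ _
    (by rw [hQa]; exact h4c) (by rw [hQa, hQb]), rfl⟩, ?_⟩
  intro hst
  obtain ⟨-, l, hl⟩ := (hst x₁).1 ⟨hQx₁, i₀, hx₁⟩
  simp only [Subgroup.coe_mul, LinearEquiv.mul_apply, refl_coe_apply] at hl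
  have hax : polar Q a x₁ = 2 * c := by
    rw [ha, polar_add_left, polar_add_left, polar_add_left, polar_self, hQx₁,
      polar_comm Q y₁ x₁, p01, polar_comm Q w x₁, p02, polar_comm Q v x₁, p03]
    simp
  rw [reflLin_of_polar_eq_zero Q _ x₁ (by rw [polar_smul_left, polar_comm, p01]; simp),
    reflLin_apply, hQa, hax] at hl
  obtain ⟨z, hz⟩ : ∃ z, z = x₁ - ((4 * c)⁻¹ * (2 * c)) • a := ⟨_, rfl⟩
  rw [← hz] at hl
  have h4 : (4 : F) ≠ 0 := by
    have : (4 : F) = 2 * 2 := by norm_num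
    rw [this]
    exact mul_ne_zero h2 h2
  have hcoef : (4 * c)⁻¹ * (2 * c) = (2 : F)⁻¹ := by
    field_simp
    norm_num
  have hzw : polar Q z w = - c := by
    rw [hz, hcoef, polar_sub_left, polar_smul_left, p02, ha, polar_add_left, polar_add_left,
      polar_add_left, p02, p12, polar_self, hQw, polar_comm Q v w, p23]
    simp only [nsmul_eq_mul, Nat.cast_ofNat, smul_eq_mul]
    field_simp
    ring
  have hzv : polar Q z v = - c := by
    rw [hz, hcoef, polar_sub_left, polar_smul_left, p03, ha, polar_add_left, polar_add_left,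
      polar_add_left, p03, p13, p23, polar_self, hQv]
    simp only [nsmul_eq_mul, Nat.cast_ofNat, smul_eq_mul]
    field_simp
    ring
  have h5 : l = i₂ := by
    by_contra hne
    have := horth l i₂ hne z hl w hw
    rw [hzw] at this
    exact hc (neg_eq_zero.1 this)
  have h6 : l = i₃ := by
    by_contra hne
    have := horth l i₃ hne z hl v hv
    rw [hzv] at this
    exact hc (neg_eq_zero.1 this)
  exact h23 (h5.symm.trans h6)

theorem btw_q3 (hq : Fintype.card F = 3) (hQ : (polarBilin Q).Nondegenerate) {t : ℕ} (ht : 4 ≤ t)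
    (D : Fin t → Submodule F V)
    (horth : ∀ i j, i ≠ j → ∀ u ∈ D i, ∀ v ∈ D j, polar Q u v = 0)
    (hnd : ∀ i, NDon Q (D i)) (hh : ∀ i, HypPl Q (D i)) : Btw Q D := by
  obtain ⟨e, f, T⟩ := exists_HTab horth hh
  have h3 : (3 : F) = 0 := by
    have := Nat.cast_card_eq_zero F
    rw [hq] at this
    exact_mod_cast this
  have h2 : (2 : F) ≠ 0 := by
    intro h
    have : (3 : F) = 2 + 1 := by norm_num
    rw [this, h] at h3
    simp at h3
  obtain ⟨a, ha⟩ : ∃ a : Fin t → V, a = fun i => e i + f i := ⟨_, rfl⟩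
  obtain ⟨b, hb⟩ : ∃ b : Fin t → V, b = fun i => e i - f i := ⟨_, rfl⟩
  have haD : ∀ i, a i ∈ D i := fun i => by rw [ha]; exact (D i).add_mem (T.he i) (T.hf i)
  have hbD : ∀ i, b i ∈ D i := fun i => by rw [hb]; exact (D i).sub_mem (T.he i) (T.hf i)
  have hQa : ∀ i, Q (a i) = 1 := by
    intro i
    have := T.Q_comb i 1 1
    rw [ha]
    simpa using this
  have hQb : ∀ i, Q (b i) = -1 := by
    intro i
    have := T.Q_comb i 1 (-1)
    rw [hb]
    simpa [sub_eq_add_neg] using this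
  have pba : ∀ i j, polar Q (b i) (a j) = 0 := by
    intro i j
    rw [ha, hb]
    simp only [polar_add_right, polar_sub_left, T.ee, T.ff, T.ef, T.fe]
    by_cases hij : i = j
    · subst hij; simp
    · simp [hij]
  have pbb : ∀ i j, polar Q (b i) (b j) = if i = j then -2 else 0 := by
    intro i j
    rw [hb]
    simp only [polar_sub_right, polar_sub_left, T.ee, T.ff, T.ef, T.fe]
    by_cases hij : i = j
    · subst hij; simp; norm_num
    · simp [hij]
  have paa : ∀ i, polar Q (a i) (a i) = 2 := by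
    intro i
    rw [polar_self, hQa]; simp
  -- classification of the norm one vectors
  have hcl : ∀ x ∈ frameSet Q D 1, ∃ l, x = a l ∨ x = - a l := by
    rintro x ⟨hQx, l, hl⟩
    obtain ⟨α, β, rfl⟩ := T.sp l x hl
    rw [T.Q_comb] at hQx
    have hα : α ≠ 0 := by rintro rfl; simp at hQx
    have hα2 : α ^ 2 = 1 := by
      have := FiniteField.pow_card_sub_one_eq_one α hα
      rwa [hq] at this
    have hβ : β = α := by
      have h1 : α * β = α * α := by rw [hQx, ← pow_two, hα2]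
      exact mul_left_cancel₀ hα h1
    refine ⟨l, ?_⟩
    have hfac : (α - 1) * (α + 1) = 0 := by
      have : (α - 1) * (α + 1) = α ^ 2 - 1 := by ring
      rw [this, hα2, sub_self]
    rw [hβ, ha]
    rcases mul_eq_zero.1 hfac with h | h
    · left
      rw [sub_eq_zero.1 h, one_smul, one_smul]
    · right
      rw [eq_neg_of_add_eq_zero_left h]
      simp only [neg_smul, one_smul, neg_add]
  set i0 : Fin t := ⟨0, by omega⟩ with hi0
  set i1 : Fin t := ⟨1, by omega⟩ with hi1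
  set i2 : Fin t := ⟨2, by omega⟩ with hi2
  set i3 : Fin t := ⟨3, by omega⟩ with hi3
  have h01 : i0 ≠ i1 := by simp [hi0, hi1]
  have h02 : i0 ≠ i2 := by simp [hi0, hi2]
  have h03 : i0 ≠ i3 := by simp [hi0, hi3]
  have h12 : i1 ≠ i2 := by simp [hi1, hi2]
  have h13 : i1 ≠ i3 := by simp [hi1, hi3]
  have h23 : i2 ≠ i3 := by simp [hi2, hi3]
  refine ⟨frameSet Q D 1, fun g hg hp => frameSet_stab D 1 g hg hp, ?_,
    d3_third hQ h2 D one_ne_zero horth h01 h02 h03 h12 h13 h23 (haD i0) (haD i1) (haD i2) (haD i3)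
      (hQa i0) (hQa i1) (hQa i2) (hQa i3)⟩
  -- P2
  obtain ⟨u, hu⟩ : ∃ u, u = b i0 - b i1 := ⟨_, rfl⟩
  obtain ⟨v, hv⟩ : ∃ v, v = b i2 - b i3 := ⟨_, rfl⟩
  have hQsub : ∀ i j, i ≠ j → Q (b i - b j) = 1 := by
    intro i j hij
    have := Q_sub_smul Q (b i) (b j) 1
    simp only [one_smul, one_pow, one_mul] at this
    rw [this, hQb, hQb, pbb, if_neg hij.symm]
    linear_combination -h3
  have hQu : Q u = 1 := by rw [hu]; exact hQsub _ _ h01
  have hQv : Q v = 1 := by rw [hv]; exact hQsub _ _ h23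
  have hfu : ∀ x ∈ frameSet Q D 1, reflLin Q u x = x := by
    intro x hx
    apply reflLin_of_polar_eq_zero
    obtain ⟨l, rfl | rfl⟩ := hcl x hx
    · rw [hu, polar_sub_left, pba, pba, sub_zero]
    · rw [hu, polar_neg_right, polar_sub_left, pba, pba, sub_zero, neg_zero]
  have hfv : ∀ x ∈ frameSet Q D 1, reflLin Q v x = x := by
    intro x hx
    apply reflLin_of_polar_eq_zero
    obtain ⟨l, rfl | rfl⟩ := hcl x hx
    · rw [hv, polar_sub_left, pba, pba, sub_zero]
    · rw [hv, polar_neg_right, polar_sub_left, pba, pba, sub_zero, neg_zero]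
  refine ⟨_, rr_mem hQ u v (by rw [hQu]; exact one_ne_zero) (by rw [hQu, hQv]),
    rr_mem_setStab (fun x hx => by rw [hfu x hx]; exact hx)
      (fun x hx => by rw [hfv x hx]; exact hx), ?_⟩
  intro hp
  obtain ⟨l, hl⟩ := hp.common i0
  have ha0 : a i0 ∈ frameSet Q D 1 := ⟨hQa i0, i0, haD i0⟩
  have g1 := hl _ (haD i0)
  have g2 := hl _ (hbD i0)
  rw [rr_apply, hfv _ ha0, hfu _ ha0] at g1
  rw [rr_apply, reflLin_of_polar_eq_zero Q v (b i0) (by
    rw [hv, polar_sub_left, pbb, pbb, if_neg h02.symm, if_neg h03.symm, sub_zero]),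
    reflLin_apply, hQu] at g2
  have e1 : l = i0 := idx_eq horth g1 (haD i0) (by rw [paa]; exact h2)
  have e2 : l = i1 := idx_eq horth g2 (hbD i1) (by
    have : polar Q (b i0 - ((1 : F)⁻¹ * polar Q u (b i0)) • u) (b i1) = 1 := by
      rw [hu, polar_sub_left, polar_smul_left, polar_sub_left, polar_sub_left, pbb, pbb, pbb, pbb,
        if_neg h01, if_neg h01.symm, if_pos rfl, if_pos rfl]
      simp only [smul_eq_mul, inv_one, one_mul, sub_zero, zero_sub, neg_neg]
      linear_combination h3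
    rw [this]
    exact one_ne_zero)
  exact h01 (e1.symm.trans e2)

end Cfsg.Agent.Lib.Helper97.OD7
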