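import Mathlib
import Cfsg.Agent.Lib.Helper49.LocalF3
import Cfsg.Agent.Lib.Helper95.OmSiegGen

/-! Ladder OD7 (S5693): common definitions and the two generic facts. -/

set_option autoImplicit false

namespace Cfsg.Agent.Lib.Helper97.OD7

open QuadraticMap Module
open Cfsg.Agent.Lib.Helper95 (omG)
open Cfsg.Agent.Lib.Helper49

section

variable {F V : Type*} [Field F] [AddCommGroup V] [Module F V] (Q : QuadraticForm F V)

/-- `g` permutes the members of `D` -/
def Perms {t : ℕ} (D : Fin t → Submodule F V) (g : V ≃ₗ[F] V) : Prop :=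
  ∃ σ : Equiv.Perm (Fin t), ∀ i, (D i).map (g : V →ₗ[F] V) = D (σ i)

/-- some set stabiliser lies strictly between the stabiliser of `D` in `Ω` and `Ω` -/
def Btw {t : ℕ} (D : Fin t → Submodule F V) : Prop :=
  ∃ X : Set V, (∀ g ∈ omG Q, Perms D g → g ∈ setStab X) ∧
    (∃ g ∈ omG Q, g ∈ setStab X ∧ ¬ Perms D g) ∧ ∃ g ∈ omG Q, g ∉ setStab X

/-- `D` is a hyperbolic plane -/
def HypPl (D : Submodule F V) : Prop :=
  ∃ e ∈ D, ∃ f ∈ D, Q e = 0 ∧ Q f = 0 ∧ polar Q e f = 1 ∧ ∀ z ∈ D, ∃ α β : F, z = α • e + β • f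

/-- `D` contains an anisotropic plane `⟨a, a'⟩` (over `𝔽₂`) whose perp in `D` is anisotropic and
nonzero -/
def O4Pl (D : Submodule F V) : Prop :=
  ∃ a ∈ D, ∃ a' ∈ D, ∃ c ∈ D, Q a = 1 ∧ Q a' = 1 ∧ polar Q a a' = 1 ∧ c ≠ 0 ∧ polar Q c a = 0 ∧
    polar Q c a' = 0 ∧ ∀ z ∈ D, polar Q z a = 0 → polar Q z a' = 0 → Q z = 0 → z = 0

variable {Q}

/-- isometries permuting `D` stabilise the set of norm-`c` vectors of the members -/
theorem frameSet_stab {t : ℕ} (D : Fin t → Submodule F V) (c : F) (g : V ≃ₗ[F] V)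
    (hg : g ∈ omG Q) (hp : Perms D g) : g ∈ setStab (frameSet Q D c) := by
  obtain ⟨g, -, rfl⟩ := hg
  obtain ⟨σ, hσ⟩ := hp
  intro x
  change x ∈ frameSet Q D c ↔ g.1 x ∈ frameSet Q D c
  constructor
  · rintro ⟨hQx, i, hi⟩
    refine ⟨by rw [OG_apply]; exact hQx, σ i, ?_⟩
    rw [← hσ i]
    exact ⟨x, hi, rfl⟩
  · rintro ⟨hQx, j, hj⟩
    rw [OG_apply] at hQx
    refine ⟨hQx, σ.symm j, ?_⟩
    have h := hσ (σ.symm j)
    rw [Equiv.apply_symm_apply] at h
    rw [← h] at hj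
    obtain ⟨x', hx', he⟩ := hj
    have : x' = x := g.1.injective he
    rwa [this] at hx'

/-- elements of `Ω` preserve the polar form -/
theorem omG_polar (g : V ≃ₗ[F] V) (hg : g ∈ omG Q) (x y : V) :
    polar Q (g x) (g y) = polar Q x y := by
  obtain ⟨g, -, rfl⟩ := hg
  exact OG_polar Q g x y

/-- a vector of a member not orthogonal to a vector of `D j` lies in `D j` only -/
theorem idx_eq {t : ℕ} {D : Fin t → Submodule F V}
    (horth : ∀ i j, i ≠ j → ∀ u ∈ D i, ∀ v ∈ D j, polar Q u v = 0) {l j : Fin t} {z w : V}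
    (hz : z ∈ D l) (hw : w ∈ D j) (h : polar Q z w ≠ 0) : l = j := by
  by_contra hne
  exact h (horth l j hne z hz w hw)

/-- the image of a member: if `g` permutes `D` and `x ∈ D i` then `g x` and `g y` lie in a common
member for all `x y ∈ D i` -/
theorem Perms.common {t : ℕ} {D : Fin t → Submodule F V} {g : V ≃ₗ[F] V} (hp : Perms D g)
    (i : Fin t) : ∃ l, ∀ x ∈ D i, g x ∈ D l := by
  obtain ⟨σ, hσ⟩ := hp
  refine ⟨σ i, fun x hx => ?_⟩
  rw [← hσ i]
  exact ⟨x, hx, rfl⟩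

/-- product of two reflections in vectors of equal nonzero norm, as an element of `Ω` -/
theorem rr_mem [Fintype F] [FiniteDimensional F V] (hQ : (polarBilin Q).Nondegenerate) (u v : V)
    (hu : Q u ≠ 0) (h : Q u = Q v) : (refl Q u * refl Q v).1 ∈ omG Q :=
  ⟨_, refl_mul_refl_mem_commutator_of_eq Q hQ u v hu h, rfl⟩

theorem rr_apply (u v x : V) : (refl Q u * refl Q v).1 x = reflLin Q u (reflLin Q v x) := rfl

/-- to put `r_u r_v` in a set stabiliser it is enough that both reflections map the set into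
itself -/
theorem rr_mem_setStab {X : Set V} {u v : V} (hu : ∀ x ∈ X, reflLin Q u x ∈ X)
    (hv : ∀ x ∈ X, reflLin Q v x ∈ X) : (refl Q u * refl Q v).1 ∈ setStab (F := F) X := by
  intro x
  rw [rr_apply]
  constructor
  · intro hx
    exact hu _ (hv _ hx)
  · intro hx
    have h3 := hv _ (hu _ hx)
    rwa [reflLin_reflLin, reflLin_reflLin] at h3

end

end Cfsg.Agent.Lib.Helper97.OD7
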