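import Cfsg.Agent.Lib.Helper97.OD7.Tab

set_option autoImplicit false

namespace Cfsg.Agent.Lib.Helper97.OD7

open QuadraticMap Module
open Cfsg.Agent.Lib.Helper95 (omG)
open Cfsg.Agent.Lib.Helper49

variable {F V : Type*} [Field F] [Fintype F] [AddCommGroup V] [Module F V] [FiniteDimensional F V]
  {Q : QuadraticForm F V}

omit [AddCommGroup V] [Module F V] [FiniteDimensional F V] in
theorem eq_one_of_card_two (hq : Fintype.card F = 2) {a : F} (ha : a ≠ 0) : a = 1 := by
  have := FiniteField.pow_card_sub_one_eq_one a ha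
  rwa [hq, pow_one] at this

omit [AddCommGroup V] [Module F V] [FiniteDimensional F V] in
theorem two_eq_zero_of_card_two (hq : Fintype.card F = 2) : (2 : F) = 0 := by
  by_contra h
  have := eq_one_of_card_two hq h
  have h1 : (1 : F) = 0 := by linear_combination this
  exact one_ne_zero h1

theorem btw_q2 (hq : Fintype.card F = 2) (hQ : (polarBilin Q).Nondegenerate) {t : ℕ} (ht : 4 ≤ t)
    (D : Fin t → Submodule F V)
    (horth : ∀ i j, i ≠ j → ∀ u ∈ D i, ∀ v ∈ D j, polar Q u v = 0)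
    (hnd : ∀ i, NDon Q (D i)) (hh : ∀ i, HypPl Q (D i)) : Btw Q D := by
  obtain ⟨e, f, T⟩ := exists_HTab horth hh
  have h2 := two_eq_zero_of_card_two hq
  have h11 : (1 : F) + 1 = 0 := by rw [one_add_one_eq_two, h2]
  have hneg : (-1 : F) = 1 := by linear_combination -h11
  -- classification of the norm one vectors
  have hcl : ∀ x ∈ frameSet Q D 1, ∃ l, x = e l + f l := by
    rintro x ⟨hQx, l, hl⟩
    obtain ⟨α, β, rfl⟩ := T.sp l x hl
    rw [T.Q_comb] at hQx
    have hα : α ≠ 0 := by rintro rfl; simp at hQx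
    have hβ : β ≠ 0 := by rintro rfl; simp at hQx
    refine ⟨l, ?_⟩
    rw [eq_one_of_card_two hq hα, eq_one_of_card_two hq hβ, one_smul, one_smul]
  have hQa : ∀ i, Q (e i + f i) = 1 := by
    intro i
    have := T.Q_comb i 1 1
    simpa using this
  have paa : ∀ i j, polar Q (e i + f i) (e j + f j) = 0 := by
    intro i j
    simp only [polar_add_left, polar_add_right, T.ee, T.ff, T.ef, T.fe]
    by_cases hij : i = j
    · subst hij; simp [h11]
    · simp [hij]
  set i0 : Fin t := ⟨0, by omega⟩ with hi0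
  set i1 : Fin t := ⟨1, by omega⟩ with hi1
  set i2 : Fin t := ⟨2, by omega⟩ with hi2
  set i3 : Fin t := ⟨3, by omega⟩ with hi3
  have h01 : i0 ≠ i1 := by simp [hi0, hi1]
  have h02 : i0 ≠ i2 := by simp [hi0, hi2]
  have h03 : i0 ≠ i3 := by simp [hi0, hi3]
  have h12 : i1 ≠ i2 := by simp [hi1, hi2]
  have h13 : i1 ≠ i3 := by simp [hi1, hi3]
  have h23 : i2 ≠ i3 := by simp [hi2, hi3]
  refine ⟨frameSet Q D 1, fun g hg hp => frameSet_stab D 1 g hg hp, ?_, ?_⟩
  · -- P2
    obtain ⟨u, hu⟩ : ∃ u, u = (e i0 + f i0) + (e i1 + f i1) + (e i2 + f i2) := ⟨_, rfl⟩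
    obtain ⟨v, hv⟩ : ∃ v, v = e i3 + f i3 := ⟨_, rfl⟩
    have hQu : Q u = 1 := by
      rw [hu, Q_add_eq, Q_add_eq, hQa, hQa, hQa, paa, polar_add_left Q (e i0 + f i0) (e i1 + f i1),
        paa, paa]
      linear_combination h11
    have hQv : Q v = 1 := by rw [hv, hQa]
    have hfu : ∀ x ∈ frameSet Q D 1, reflLin Q u x = x := by
      intro x hx
      obtain ⟨l, rfl⟩ := hcl x hx
      apply reflLin_of_polar_eq_zero
      rw [hu, polar_add_left Q _ (e i2 + f i2), polar_add_left Q (e i0 + f i0) (e i1 + f i1), paa, paa,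
        paa]; simp
    have hfv : ∀ x ∈ frameSet Q D 1, reflLin Q v x = x := by
      intro x hx
      obtain ⟨l, rfl⟩ := hcl x hx
      apply reflLin_of_polar_eq_zero
      rw [hv, paa]
    refine ⟨_, rr_mem hQ u v (by rw [hQu]; exact one_ne_zero) (by rw [hQu, hQv]),
      rr_mem_setStab (fun x hx => by rw [hfu x hx]; exact hx)
        (fun x hx => by rw [hfv x hx]; exact hx), ?_⟩
    intro hp
    obtain ⟨l, hl⟩ := hp.common i0
    have ha0 : e i0 + f i0 ∈ frameSet Q D 1 := ⟨hQa i0, i0, (D i0).add_mem (T.he i0) (T.hf i0)⟩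
    have g1 := hl _ ((D i0).add_mem (T.he i0) (T.hf i0))
    have g2 := hl _ (T.he i0)
    rw [rr_apply, hfv _ ha0, hfu _ ha0] at g1
    rw [rr_apply, reflLin_of_polar_eq_zero Q v (e i0) (by
      rw [hv]; simp [polar_add_left, T.ee, T.fe, h03.symm]), reflLin_apply, hQu] at g2
    have e1 : l = i0 := idx_eq horth g1 (T.he i0) (by
      simp [polar_add_left, T.ee, T.fe])
    have e2 : l = i1 := idx_eq horth g2 (T.he i1) (by
      rw [hu]
      simp [polar_add_left, polar_add_right, polar_sub_left, polar_smul_left, T.ee, T.fe, h01,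
        h01.symm, h02, h02.symm, h12, h12.symm])
    exact h01 (e1.symm.trans e2)
  · -- P3
    obtain ⟨u, hu⟩ : ∃ u, u = (e i0 + f i0) + e i1 := ⟨_, rfl⟩
    obtain ⟨v, hv⟩ : ∃ v, v = e i3 + f i3 := ⟨_, rfl⟩
    have hQu : Q u = 1 := by
      rw [hu, Q_add_eq, hQa, T.Qe]
      simp [polar_add_left, T.ee, T.fe, h01]
    have hQv : Q v = 1 := by rw [hv, hQa]
    refine ⟨_, rr_mem hQ u v (by rw [hQu]; exact one_ne_zero) (by rw [hQu, hQv]), ?_⟩
    intro hst
    have ha1 : e i1 + f i1 ∈ frameSet Q D 1 := ⟨hQa i1, i1, (D i1).add_mem (T.he i1) (T.hf i1)⟩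
    obtain ⟨-, l, hl⟩ := (hst _).1 ha1
    rw [rr_apply, reflLin_of_polar_eq_zero Q v _ (by rw [hv, paa]), reflLin_apply, hQu] at hl
    have e1 : l = i0 := idx_eq horth hl (T.he i0) (by
      rw [hu]
      simp [polar_add_left, polar_add_right, polar_sub_left, polar_smul_left, T.ee, T.fe, T.ef,
        T.ff, h01, h01.symm])
    have e2 : l = i1 := idx_eq horth hl (T.he i1) (by
      rw [hu]
      simp [polar_add_left, polar_add_right, polar_sub_left, polar_smul_left, T.ee, T.fe, T.ef,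
        T.ff, h01, h01.symm])
    exact h01 (e1.symm.trans e2)

end Cfsg.Agent.Lib.Helper97.OD7
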