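import Cfsg.Agent.Lib.Helper97.OD7.Tab

set_option autoImplicit false

namespace Cfsg.Agent.Lib.Helper97.OD7

open QuadraticMap Module
open Cfsg.Agent.Lib.Helper95 (omG)
open Cfsg.Agent.Lib.Helper49

section field

variable {F : Type*} [Field F] [Fintype F]

theorem two_eq_zero_of_card_four (hq : Fintype.card F = 4) : (2 : F) = 0 := by
  have h1 := FiniteField.pow_card (2 : F)
  have h2 := FiniteField.pow_card (3 : F)
  rw [hq] at h1 h2
  linear_combination 2 * h2 - 11 * h1

theorem exists_omega_of_card_four (hq : Fintype.card F = 4) : ∃ ω : F, ω ≠ 0 ∧ ω ≠ 1 := by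
  classical
  by_contra hcon
  push Not at hcon
  have hsub : (Finset.univ : Finset F) ⊆ {0, 1} := by
    intro x _
    by_cases hx : x = 0
    · simp [hx]
    · simp [hcon x hx]
  have := Finset.card_le_card hsub
  rw [Finset.card_univ, hq] at this
  have h2 : ({0, 1} : Finset F).card ≤ 2 := Finset.card_le_two
  omega

theorem sq_add_of_card_four (hq : Fintype.card F = 4) {γ : F} (h0 : γ ≠ 0) (h1 : γ ≠ 1) :
    γ ^ 2 + γ + 1 = 0 := by
  have h3 := FiniteField.pow_card_sub_one_eq_one γ h0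
  rw [hq] at h3
  have : (γ - 1) * (γ ^ 2 + γ + 1) = 0 := by
    have e : (4 - 1 : ℕ) = 3 := rfl
    rw [e] at h3
    linear_combination h3
  exact (mul_eq_zero.1 this).resolve_left (sub_ne_zero.2 h1)

/-- `γ + δ ∈ {0,1}` when `γ δ = 1` -/
theorem add_inv_of_card_four (hq : Fintype.card F = 4) {γ δ : F} (h : γ * δ = 1) :
    γ + δ = 0 ∨ γ + δ = 1 := by
  have h2 := two_eq_zero_of_card_four hq
  have h0 : γ ≠ 0 := by rintro rfl; simp at h
  by_cases h1 : γ = 1
  · subst h1
    left
    have : δ = 1 := by simpa using h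
    rw [this, one_add_one_eq_two, h2]
  · right
    have h3 := sq_add_of_card_four hq h0 h1
    -- multiply by δ
    linear_combination δ * h3 - (γ + 1) * h - h2

end field

variable {F V : Type*} [Field F] [Fintype F] [AddCommGroup V] [Module F V] [FiniteDimensional F V]
  {Q : QuadraticForm F V}

theorem btw_q4 (hq : Fintype.card F = 4) (hQ : (polarBilin Q).Nondegenerate) {t : ℕ} (ht : 4 ≤ t)
    (D : Fin t → Submodule F V)
    (horth : ∀ i j, i ≠ j → ∀ u ∈ D i, ∀ v ∈ D j, polar Q u v = 0)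
    (hnd : ∀ i, NDon Q (D i)) (hh : ∀ i, HypPl Q (D i)) : Btw Q D := by
  obtain ⟨e, f, T⟩ := exists_HTab horth hh
  have h2 := two_eq_zero_of_card_four hq
  have h11 : (1 : F) + 1 = 0 := by rw [one_add_one_eq_two, h2]
  obtain ⟨ω, hω0, hω1⟩ := exists_omega_of_card_four hq
  have hω := sq_add_of_card_four hq hω0 hω1
  have hωi : ω * ω⁻¹ = 1 := mul_inv_cancel₀ hω0
  have hωs : ω + ω⁻¹ = 1 := by
    linear_combination ω⁻¹ * hω - (ω + 1) * hωi - h2
  -- closure properties of `{0,1}`
  have Badd : ∀ s s' : F, (s = 0 ∨ s = 1) → (s' = 0 ∨ s' = 1) → (s + s' = 0 ∨ s + s' = 1) := by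
    rintro s s' (rfl | rfl) (rfl | rfl) <;> simp [h11]
  have Bsub : ∀ s s' : F, (s = 0 ∨ s = 1) → (s' = 0 ∨ s' = 1) → (s - s' = 0 ∨ s - s' = 1) := by
    rintro s s' (rfl | rfl) (rfl | rfl)
    · simp
    · right; linear_combination -h11
    · simp
    · simp
  have Bmul : ∀ s s' : F, (s = 0 ∨ s = 1) → (s' = 0 ∨ s' = 1) → (s * s' = 0 ∨ s * s' = 1) := by
    rintro s s' (rfl | rfl) (rfl | rfl) <;> simp
  -- LOCAL
  have hloc : ∀ x ∈ frameSet Q D 1, ∀ y ∈ frameSet Q D 1, polar Q x y = 0 ∨ polar Q x y = 1 := by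
    rintro x ⟨hQx, l, hl⟩ y ⟨hQy, m, hm⟩
    by_cases hlm : l = m
    · subst hlm
      obtain ⟨α, β, rfl⟩ := T.sp l x hl
      obtain ⟨α', β', rfl⟩ := T.sp l y hm
      rw [T.Q_comb] at hQx hQy
      have : polar Q (α • e l + β • f l) (α' • e l + β' • f l) = α * β' + β * α' := by
        simp [polar_add_left, polar_add_right, polar_smul_left, polar_smul_right, T.ee, T.ff, T.ef,
          T.fe]
        ring
      rw [this]
      exact add_inv_of_card_four hq (by linear_combination α' * β' * hQx + hQy)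
    · exact Or.inl (horth l m hlm x hl y hm)
  obtain ⟨X, hX⟩ : ∃ X : Set V, X = {x | ∀ y ∈ frameSet Q D 1, polar Q x y = 0 ∨ polar Q x y = 1} :=
    ⟨_, rfl⟩
  have hSX : ∀ x ∈ frameSet Q D 1, x ∈ X := by
    intro x hx
    rw [hX]
    exact hloc x hx
  -- the vectors `v`, `w`
  obtain ⟨v, hv⟩ : ∃ v : Fin t → V, v = fun i => e i + f i := ⟨_, rfl⟩
  obtain ⟨w, hw⟩ : ∃ w : Fin t → V, w = fun i => ω • e i + ω⁻¹ • f i := ⟨_, rfl⟩
  have hvD : ∀ i, v i ∈ D i := fun i => by
    rw [hv]; exact (D i).add_mem (T.he i) (T.hf i)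
  have hwD : ∀ i, w i ∈ D i := fun i => by
    rw [hw]; exact T.comb_mem i _ _
  have hQv : ∀ i, Q (v i) = 1 := by
    intro i
    have := T.Q_comb i 1 1
    rw [hv]
    simpa using this
  have hQw : ∀ i, Q (w i) = 1 := by
    intro i
    rw [hw]
    exact (T.Q_comb i _ _).trans hωi
  have hvS : ∀ i, v i ∈ frameSet Q D 1 := fun i => ⟨hQv i, i, hvD i⟩
  have hwS : ∀ i, w i ∈ frameSet Q D 1 := fun i => ⟨hQw i, i, hwD i⟩
  have pvv : ∀ i j, polar Q (v i) (v j) = 0 := by
    intro i j
    by_cases hij : i = j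
    · subst hij; rw [polar_self, hQv]; simp [h2]
    · exact horth i j hij _ (hvD i) _ (hvD j)
  have pww : ∀ i j, polar Q (w i) (w j) = 0 := by
    intro i j
    by_cases hij : i = j
    · subst hij; rw [polar_self, hQw]; simp [h2]
    · exact horth i j hij _ (hwD i) _ (hwD j)
  have pvw : ∀ i j, polar Q (v i) (w j) = if i = j then 1 else 0 := by
    intro i j
    by_cases hij : i = j
    · subst hij
      rw [if_pos rfl, hv, hw]
      simp only [polar_add_left, polar_add_right, polar_smul_right, T.ee, T.ff, T.ef, T.fe]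
      simp only [if_true, smul_eq_mul, mul_zero, mul_one, zero_add, add_zero]
      linear_combination hωs
    · rw [if_neg hij]; exact horth i j hij _ (hvD i) _ (hwD j)
  have pwv : ∀ i j, polar Q (w i) (v j) = if i = j then 1 else 0 := by
    intro i j
    rw [polar_comm, pvw]
    by_cases hij : i = j
    · subst hij; simp
    · rw [if_neg hij, if_neg (Ne.symm hij)]
  -- reflections preserving `X`
  have hrefl : ∀ y, Q y = 1 → (∀ x ∈ X, polar Q y x = 0 ∨ polar Q y x = 1) →
      ∀ x ∈ X, reflLin Q y x ∈ X := by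
    intro y hQy hy x hx
    have hx' := hx
    rw [hX] at hx' ⊢
    intro z hz
    rw [reflLin_apply, hQy, polar_sub_left, polar_smul_left, smul_eq_mul, inv_one, one_mul]
    exact Bsub _ _ (hx' z hz) (Bmul _ _ (hy x hx) (hy z (hSX z hz)))
  have hSy : ∀ y ∈ frameSet Q D 1, ∀ x ∈ X, polar Q y x = 0 ∨ polar Q y x = 1 := by
    intro y hy x hx
    rw [hX] at hx
    rw [polar_comm]
    exact hx y hy
  set i0 : Fin t := ⟨0, by omega⟩ with hi0
  set i1 : Fin t := ⟨1, by omega⟩ with hi1
  set i2 : Fin t := ⟨2, by omega⟩ with hi2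
  set i3 : Fin t := ⟨3, by omega⟩ with hi3
  have h01 : i0 ≠ i1 := by simp [hi0, hi1]
  have h02 : i0 ≠ i2 := by simp [hi0, hi2]
  have h03 : i0 ≠ i3 := by simp [hi0, hi3]
  have h12 : i1 ≠ i2 := by simp [hi1, hi2]
  have h13 : i1 ≠ i3 := by simp [hi1, hi3]
  have h23 : i2 ≠ i3 := by simp [hi2, hi3]
  refine ⟨X, ?_, ?_, ?_⟩
  · -- P1
    intro g hg hp
    have hS := frameSet_stab D 1 g hg hp
    intro x
    rw [hX]
    constructor
    · intro hx y hy
      have hy' : g.symm y ∈ frameSet Q D 1 := (hS _).2 (by simpa using hy)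
      have := hx _ hy'
      rw [← omG_polar g hg] at this
      simpa using this
    · intro hx y hy
      have := hx _ ((hS y).1 hy)
      rwa [omG_polar g hg] at this
  · -- P2
    obtain ⟨u, hu⟩ : ∃ u, u = v i0 + v i1 + v i2 := ⟨_, rfl⟩
    have hQu : Q u = 1 := by
      rw [hu, Q_add_eq, Q_add_eq, hQv, hQv, hQv, pvv, polar_add_left, pvv, pvv]
      linear_combination h11
    refine ⟨_, rr_mem hQ u (v i3) (by rw [hQu]; exact one_ne_zero) (by rw [hQu, hQv]),
      rr_mem_setStab (hrefl u hQu ?_) (hrefl _ (hQv i3) (hSy _ (hvS i3))), ?_⟩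
    · intro x hx
      rw [hu, polar_add_left, polar_add_left]
      exact Badd _ _ (Badd _ _ (hSy _ (hvS i0) x hx) (hSy _ (hvS i1) x hx)) (hSy _ (hvS i2) x hx)
    · intro hp
      obtain ⟨l, hl⟩ := hp.common i0
      have g1 := hl _ (hvD i0)
      have g2 := hl _ (hwD i0)
      rw [rr_apply, reflLin_of_polar_eq_zero Q (v i3) _ (pvv _ _), reflLin_of_polar_eq_zero Q u _ (by
        rw [hu, polar_add_left, polar_add_left, pvv, pvv, pvv]; simp)] at g1
      rw [rr_apply, reflLin_of_polar_eq_zero Q (v i3) _ (by rw [pvw, if_neg h03.symm]),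
        reflLin_apply, hQu] at g2
      have e1 : l = i0 := idx_eq horth g1 (hwD i0) (by rw [pvw]; simp)
      have e2 : l = i1 := idx_eq horth g2 (hwD i1) (by
        rw [hu]
        simp [polar_add_left, polar_sub_left, polar_smul_left, pvv, pvw, pwv, pww,
          h01, h01.symm, h02, h02.symm, h12, h12.symm])
      exact h01 (e1.symm.trans e2)
  · -- P3
    obtain ⟨y, hy⟩ : ∃ y, y = v i0 + ω • v i1 := ⟨_, rfl⟩
    obtain ⟨y', hy'⟩ : ∃ y', y' = v i2 + ω • v i3 := ⟨_, rfl⟩
    have hQy : Q y = ω := by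
      rw [hy, Q_add_eq, QuadraticMap.map_smul, hQv, hQv, polar_smul_right, pvv]
      simp only [smul_eq_mul, mul_zero, mul_one, add_zero]
      linear_combination hω - ω * h2
    have hQy' : Q y' = ω := by
      rw [hy', Q_add_eq, QuadraticMap.map_smul, hQv, hQv, polar_smul_right, pvv]
      simp only [smul_eq_mul, mul_zero, mul_one, add_zero]
      linear_combination hω - ω * h2
    refine ⟨_, rr_mem hQ y y' (by rw [hQy]; exact hω0) (by rw [hQy, hQy']), ?_⟩
    intro hst
    have hx := (hst _).1 (hSX _ (hwS i0))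
    rw [rr_apply, reflLin_of_polar_eq_zero Q y' _ (by
      rw [hy', polar_add_left, polar_smul_left, pvw, pvw, if_neg h02.symm, if_neg h03.symm]; simp),
      reflLin_apply, hQy, hX] at hx
    have h5 := hx _ (hwS i0)
    have h6 : polar Q (w i0 - (ω⁻¹ * polar Q y (w i0)) • y) (w i0) = - ω⁻¹ := by
      rw [hy]
      simp [polar_add_left, polar_sub_left, polar_smul_left, pvv, pvw, pwv, pww, h01, h01.symm]
    rw [h6] at h5
    rcases h5 with h5 | h5
    · exact inv_ne_zero hω0 (neg_eq_zero.1 h5)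
    · apply hω1
      have : ω⁻¹ = 1 := by linear_combination -h5 - h2
      rw [← inv_inv ω, this, inv_one]

end Cfsg.Agent.Lib.Helper97.OD7
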