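import Cfsg.Agent.Lib.Helper97.OD7.E2

set_option autoImplicit false

namespace Cfsg.Agent.Lib.Helper97.OD7

open QuadraticMap Module
open Cfsg.Agent.Lib.Helper95 (omG SPair sg sg_apply sg_mem_commutator)
open Cfsg.Agent.Lib.Helper49

variable {F V : Type*} [Field F] [Fintype F] [AddCommGroup V] [Module F V] [FiniteDimensional F V]
  {Q : QuadraticForm F V}

theorem btw_k4 (hq : Fintype.card F = 2) (hQ : (polarBilin Q).Nondegenerate)
    (hd : 10 < finrank F V) {t : ℕ} (ht : 4 ≤ t) (D : Fin t → Submodule F V)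
    (horth : ∀ i j, i ≠ j → ∀ u ∈ D i, ∀ v ∈ D j, polar Q u v = 0)
    (hnd : ∀ i, NDon Q (D i)) (hh : ∀ i, O4Pl Q (D i)) : Btw Q D := by
  choose a ha a' ha' c hc hQa hQa' haa' hc0 hca hca' hani using hh
  have h2 := two_eq_zero_of_card_two hq
  have h11 : (1 : F) + 1 = 0 := by rw [one_add_one_eq_two, h2]
  have h01F : ∀ s : F, s = 0 ∨ s = 1 := fun s => by
    by_cases hs : s = 0
    · exact Or.inl hs
    · exact Or.inr (eq_one_of_card_two hq hs)
  have paa : ∀ i j, polar Q (a i) (a j) = 0 := by
    intro i j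
    by_cases hij : i = j
    · subst hij; rw [polar_self, hQa]; simp [h2]
    · exact horth i j hij _ (ha i) _ (ha j)
  have pbb : ∀ i j, polar Q (a' i) (a' j) = 0 := by
    intro i j
    by_cases hij : i = j
    · subst hij; rw [polar_self, hQa']; simp [h2]
    · exact horth i j hij _ (ha' i) _ (ha' j)
  have pab : ∀ i j, polar Q (a i) (a' j) = if i = j then 1 else 0 := by
    intro i j
    by_cases hij : i = j
    · subst hij; rw [haa']; simp
    · rw [if_neg hij]; exact horth i j hij _ (ha i) _ (ha' j)
  have pba : ∀ i j, polar Q (a' i) (a j) = if i = j then 1 else 0 := by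
    intro i j
    by_cases hij : i = j
    · subst hij; rw [polar_comm, haa']; simp
    · rw [if_neg hij]; exact horth i j hij _ (ha' i) _ (ha j)
  -- KEY
  have key : ∀ i, ∀ x ∈ D i, Q x = 1 → (polar Q (a i) x = 0 ∧ polar Q (a' i) x = 0) ∨
      x = polar Q (a' i) x • a i + polar Q (a i) x • a' i := by
    intro i x hx hQx
    obtain ⟨s, hs⟩ : ∃ s, s = polar Q (a i) x := ⟨_, rfl⟩
    obtain ⟨s', hs'⟩ : ∃ s', s' = polar Q (a' i) x := ⟨_, rfl⟩
    rw [← hs, ← hs']
    by_cases h0 : s = 0 ∧ s' = 0
    · exact Or.inl h0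
    · right
      have hz := hani i (x + -(s' • a i + s • a' i))
        ((D i).add_mem hx ((D i).neg_mem ((D i).add_mem ((D i).smul_mem _ (ha i))
          ((D i).smul_mem _ (ha' i))))) (by
          simp only [polar_add_left, polar_neg_left, polar_smul_left, paa, pba, polar_comm Q x (a i),
            ← hs]
          simp) (by
          simp only [polar_add_left, polar_neg_left, polar_smul_left, pab, pbb,
            polar_comm Q x (a' i), ← hs']
          simp) (by
          rw [Q_add_eq, QuadraticMap.map_neg, Q_add_eq, QuadraticMap.map_smul,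
            QuadraticMap.map_smul, hQx, hQa, hQa']
          simp only [polar_neg_right, polar_add_right, polar_smul_right, polar_smul_left, pab,
            polar_comm Q x (a i), polar_comm Q x (a' i), ← hs, ← hs']
          rcases h01F s with rfl | rfl <;> rcases h01F s' with rfl | rfl
          · exact absurd ⟨rfl, rfl⟩ h0
          · simp [h11]
          · simp [h11]
          · simp only [if_true, smul_eq_mul, mul_one]
            linear_combination h11)
      exact add_neg_eq_zero.1 hz
  -- the swap moves norm one vectors of `D i` into `D i` or `D j`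
  have swap : ∀ i j, i ≠ j → ∀ x ∈ D i, Q x = 1 →
      (x + polar Q (a i + a j) x • (a' i + a' j) - polar Q (a' i + a' j) x • (a i + a j) ∈ D i ∨
       x + polar Q (a i + a j) x • (a' i + a' j) - polar Q (a' i + a' j) x • (a i + a j) ∈ D j) := by
    intro i j hij x hx hQx
    have e1 : polar Q (a i + a j) x = polar Q (a i) x := by
      rw [polar_add_left, horth j i hij.symm _ (ha j) x hx, add_zero]
    have e2 : polar Q (a' i + a' j) x = polar Q (a' i) x := by
      rw [polar_add_left, horth j i hij.symm _ (ha' j) x hx, add_zero]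
    rw [e1, e2]
    rcases key i x hx hQx with ⟨k1, k2⟩ | k
    · left
      rw [k1, k2]; simpa using hx
    · right
      obtain ⟨s, hs⟩ : ∃ s, s = polar Q (a i) x := ⟨_, rfl⟩
      obtain ⟨s', hs'⟩ : ∃ s', s' = polar Q (a' i) x := ⟨_, rfl⟩
      rw [← hs, ← hs'] at k ⊢
      have : x + s • (a' i + a' j) - s' • (a i + a j) = s • a' j - s' • a j := by
        have h2s : (2 * s) • a' i = 0 := by rw [h2]; simp
        rw [k]
        linear_combination (norm := module) h2s
      rw [this]
      exact (D j).sub_mem ((D j).smul_mem _ (ha' j)) ((D j).smul_mem _ (ha j))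
  set i0 : Fin t := ⟨0, by omega⟩ with hi0
  set i1 : Fin t := ⟨1, by omega⟩ with hi1
  set i2 : Fin t := ⟨2, by omega⟩ with hi2
  set i3 : Fin t := ⟨3, by omega⟩ with hi3
  have h01 : i0 ≠ i1 := by simp [hi0, hi1]
  have h02 : i0 ≠ i2 := by simp [hi0, hi2]
  have h03 : i0 ≠ i3 := by simp [hi0, hi3]
  have h12 : i1 ≠ i2 := by simp [hi1, hi2]
  have h13 : i1 ≠ i3 := by simp [hi1, hi3]
  have h23 : i2 ≠ i3 := by simp [hi2, hi3]
  refine ⟨frameSet Q D 1, fun g hg hp => frameSet_stab D 1 g hg hp, ?_, ?_⟩
  · -- P2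
    have hS : SPair Q (a i0 + a i1) (a' i0 + a' i1) := by
      refine ⟨?_, ?_, ?_⟩
      · rw [Q_add_eq, hQa, hQa, paa]; simp [h11]
      · rw [Q_add_eq, hQa', hQa', pbb]; simp [h11]
      · simp [polar_add_left, polar_add_right, pab, h01, h01.symm, h11]
    have hmap : ∀ x ∈ frameSet Q D 1, (sg hS).1 x ∈ frameSet Q D 1 := by
      rintro x ⟨hQx, l, hl⟩
      refine ⟨by rw [OG_apply]; exact hQx, ?_⟩
      rw [sg_apply]
      by_cases hl0 : l = i0
      · subst hl0
        rcases swap _ i1 h01 x hl hQx with h | h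
        · exact ⟨_, h⟩
        · exact ⟨_, h⟩
      · by_cases hl1 : l = i1
        · subst hl1
          rcases swap _ i0 h01.symm x hl hQx with h | h
          · rw [add_comm (a _) (a i0), add_comm (a' _) (a' i0)] at h
            exact ⟨_, h⟩
          · rw [add_comm (a _) (a i0), add_comm (a' _) (a' i0)] at h
            exact ⟨_, h⟩
        · refine ⟨l, ?_⟩
          rw [polar_add_left, polar_add_left, horth i0 l (Ne.symm hl0) _ (ha i0) x hl,
            horth i1 l (Ne.symm hl1) _ (ha i1) x hl, horth i0 l (Ne.symm hl0) _ (ha' i0) x hl,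
            horth i1 l (Ne.symm hl1) _ (ha' i1) x hl]
          simpa using hl
    have hinv : ∀ x, (sg hS).1 ((sg hS).1 x) = x := by
      intro x
      have huu : polar Q (a i0 + a i1) (a i0 + a i1) = 0 := by
        rw [polar_self, hS.qu]; simp
      have hww : polar Q (a' i0 + a' i1) (a' i0 + a' i1) = 0 := by
        rw [polar_self, hS.qv]; simp
      have hwu : polar Q (a' i0 + a' i1) (a i0 + a i1) = 0 := by
        rw [polar_comm]; exact hS.uv
      obtain ⟨u, hu⟩ : ∃ u, u = a i0 + a i1 := ⟨_, rfl⟩
      obtain ⟨w, hw⟩ : ∃ w, w = a' i0 + a' i1 := ⟨_, rfl⟩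
      have huw := hS.uv
      simp only [sg_apply]
      simp only [← hu, ← hw] at huu hww hwu huw ⊢
      simp only [polar_add_right, polar_sub_right, polar_smul_right, huu, hww, hwu, huw, smul_eq_mul,
        mul_zero, add_zero, sub_zero]
      have k1 : (2 * polar Q u x) • w = 0 := by rw [h2]; simp
      have k2 : (2 * polar Q w x) • u = 0 := by rw [h2]; simp
      linear_combination (norm := module) k1 - k2
    refine ⟨(sg hS).1, ⟨_, sg_mem_commutator hQ hd hS, rfl⟩, ?_, ?_⟩
    · intro x
      constructor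
      · exact hmap x
      · intro hx
        have := hmap _ hx
        rwa [hinv] at this
    · intro hp
      obtain ⟨l, hl⟩ := hp.common i0
      have g1 := hl _ (hc i0)
      have g2 := hl _ (ha i0)
      rw [sg_apply] at g1 g2
      have q1 : polar Q (a i0 + a i1) (c i0) = 0 := by
        rw [polar_add_left, polar_comm, hca, horth i1 i0 h01.symm _ (ha i1) _ (hc i0), add_zero]
      have q2 : polar Q (a' i0 + a' i1) (c i0) = 0 := by
        rw [polar_add_left, polar_comm, hca', horth i1 i0 h01.symm _ (ha' i1) _ (hc i0), add_zero]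
      rw [q1, q2] at g1
      simp only [zero_smul, add_zero, sub_zero] at g1
      obtain ⟨cs, hcs, hne⟩ := hnd i0 (c i0) (hc i0) (hc0 i0)
      have e1 : l = i0 := idx_eq horth g1 hcs hne
      have e2 : l = i1 := idx_eq horth g2 (ha' i1) (by
        simp [polar_add_left, polar_add_right, polar_sub_left, polar_smul_left, paa, pab, pba, pbb,
          h01, h01.symm])
      exact h01 (e1.symm.trans e2)
  · -- P3
    obtain ⟨u, hu⟩ : ∃ u, u = a i0 + a i1 + a i2 := ⟨_, rfl⟩
    have hQu : Q u = 1 := by
      rw [hu, Q_add_eq, Q_add_eq, hQa, hQa, hQa, paa, polar_add_left, paa, paa]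
      linear_combination h11
    refine ⟨_, rr_mem hQ u (a i3) (by rw [hQu]; exact one_ne_zero) (by rw [hQu, hQa]), ?_⟩
    intro hst
    have hx : a' i0 ∈ frameSet Q D 1 := ⟨hQa' i0, i0, ha' i0⟩
    obtain ⟨-, l, hl⟩ := (hst _).1 hx
    rw [rr_apply, reflLin_of_polar_eq_zero Q (a i3) _ (by rw [pab, if_neg h03.symm]), reflLin_apply,
      hQu] at hl
    have e1 : l = i1 := idx_eq horth hl (ha' i1) (by
      rw [hu]
      simp [polar_add_left, polar_add_right, polar_sub_left, polar_smul_left, paa, pab, pba, pbb,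
        h01, h01.symm, h02, h02.symm, h12, h12.symm])
    have e2 : l = i2 := idx_eq horth hl (ha' i2) (by
      rw [hu]
      simp [polar_add_left, polar_add_right, polar_sub_left, polar_smul_left, paa, pab, pba, pbb,
        h01, h01.symm, h02, h02.symm, h12, h12.symm])
    exact h12 (e1.symm.trans e2)

end Cfsg.Agent.Lib.Helper97.OD7
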