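import Cfsg.Agent.Lib.Helper97.OD7.E2

set_option autoImplicit false

namespace Cfsg.Agent.Lib.Helper97.OD7

open QuadraticMap Module
open Cfsg.Agent.Lib.Helper49

variable {F V : Type*} [Field F] [Fintype F] [AddCommGroup V] [Module F V]
  {Q : QuadraticForm F V}

theorem o4Pl_of_hyp (hq : Fintype.card F = 2) {D : Submodule F V} (hd : finrank F D = 4)
    {e1 f1 e2 f2 : V} (he1 : e1 ∈ D) (hf1 : f1 ∈ D) (he2 : e2 ∈ D) (hf2 : f2 ∈ D)
    (Qe1 : Q e1 = 0) (Qf1 : Q f1 = 0) (Qe2 : Q e2 = 0) (Qf2 : Q f2 = 0)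
    (e1f1 : polar Q e1 f1 = 1) (e2f2 : polar Q e2 f2 = 1) (e1e2 : polar Q e1 e2 = 0)
    (e1f2 : polar Q e1 f2 = 0) (f1e2 : polar Q f1 e2 = 0) (f1f2 : polar Q f1 f2 = 0) :
    O4Pl Q D := by
  have h2 := two_eq_zero_of_card_two hq
  have h11 : (1 : F) + 1 = 0 := by rw [one_add_one_eq_two, h2]
  have h01F : ∀ s : F, s = 0 ∨ s = 1 := fun s => by
    by_cases hs : s = 0
    · exact Or.inl hs
    · exact Or.inr (eq_one_of_card_two hq hs)
  have e1e1 : polar Q e1 e1 = 0 := by rw [polar_self, Qe1]; simp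
  have f1f1 : polar Q f1 f1 = 0 := by rw [polar_self, Qf1]; simp
  have e2e2 : polar Q e2 e2 = 0 := by rw [polar_self, Qe2]; simp
  have f2f2 : polar Q f2 f2 = 0 := by rw [polar_self, Qf2]; simp
  have f1e1 : polar Q f1 e1 = 1 := by rw [polar_comm]; exact e1f1
  have f2e2 : polar Q f2 e2 = 1 := by rw [polar_comm]; exact e2f2
  have e2e1 : polar Q e2 e1 = 0 := by rw [polar_comm]; exact e1e2
  have f2e1 : polar Q f2 e1 = 0 := by rw [polar_comm]; exact e1f2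
  have e2f1 : polar Q e2 f1 = 0 := by rw [polar_comm]; exact f1e2
  have f2f1 : polar Q f2 f1 = 0 := by rw [polar_comm]; exact f1f2
  have hli : LinearIndependent F ![(⟨e1, he1⟩ : D), ⟨f1, hf1⟩, ⟨e2, he2⟩, ⟨f2, hf2⟩] := by
    rw [Fintype.linearIndependent_iff]
    intro g hg
    rw [Fin.sum_univ_four] at hg
    have h1 : g 0 • e1 + g 1 • f1 + g 2 • e2 + g 3 • f2 = 0 := congrArg Subtype.val hg
    have k0 : polar Q (g 0 • e1 + g 1 • f1 + g 2 • e2 + g 3 • f2) f1 = 0 := by rw [h1]; simp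
    have k1 : polar Q (g 0 • e1 + g 1 • f1 + g 2 • e2 + g 3 • f2) e1 = 0 := by rw [h1]; simp
    have k2 : polar Q (g 0 • e1 + g 1 • f1 + g 2 • e2 + g 3 • f2) f2 = 0 := by rw [h1]; simp
    have k3 : polar Q (g 0 • e1 + g 1 • f1 + g 2 • e2 + g 3 • f2) e2 = 0 := by rw [h1]; simp
    simp only [polar_add_left, polar_smul_left, e1e1, f1f1, e2e2, f2f2, f1e1, f2e2, e2e1, f2e1, e2f1,
      f2f1, e1f1, e2f2, e1e2, e1f2, f1e2, f1f2, smul_eq_mul, mul_zero, mul_one, add_zero,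
      zero_add] at k0 k1 k2 k3
    intro i
    fin_cases i
    · exact k0
    · exact k1
    · exact k2
    · exact k3
  have hspan := hli.span_eq_top_of_card_eq_finrank (by simp [hd])
  have hexp : ∀ z ∈ D, ∃ α1 β1 α2 β2 : F, z = α1 • e1 + β1 • f1 + α2 • e2 + β2 • f2 := by
    intro z hz
    have hzm : (⟨z, hz⟩ : D) ∈
        Submodule.span F (Set.range ![(⟨e1, he1⟩ : D), ⟨f1, hf1⟩, ⟨e2, he2⟩, ⟨f2, hf2⟩]) := by
      rw [hspan]; trivial
    rw [Submodule.mem_span_range_iff_exists_fun] at hzm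
    obtain ⟨c, hc⟩ := hzm
    rw [Fin.sum_univ_four] at hc
    exact ⟨c 0, c 1, c 2, c 3, (congrArg Subtype.val hc).symm⟩
  have Qc : Q (e2 + f2) = 1 := by rw [Q_add_eq, Qe2, Qf2, e2f2]; simp
  refine ⟨e1 + f1, D.add_mem he1 hf1, e1 + (e2 + f2), D.add_mem he1 (D.add_mem he2 hf2), e2 + f2,
    D.add_mem he2 hf2, ?_, ?_, ?_, ?_, ?_, ?_, ?_⟩
  · rw [Q_add_eq, Qe1, Qf1, e1f1]; simp
  · rw [Q_add_eq, Qe1, Qc, polar_add_right, e1e2, e1f2]; simp
  · simp only [polar_add_left, polar_add_right, e1e1, f1f1, e2e2, f2f2, f1e1, f2e2, e2e1, f2e1, e2f1,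
      f2f1, e1f1, e2f2, e1e2, e1f2, f1e2, f1f2]
    simp
  · intro h0
    rw [h0] at Qc
    simp at Qc
  · simp only [polar_add_left, polar_add_right, e1e1, f1f1, e2e2, f2f2, f1e1, f2e2, e2e1, f2e1, e2f1,
      f2f1, e1f1, e2f2, e1e2, e1f2, f1e2, f1f2]
    simp
  · simp only [polar_add_left, polar_add_right, e1e1, f1f1, e2e2, f2f2, f1e1, f2e2, e2e1, f2e1, e2f1,
      f2f1, e1f1, e2f2, e1e2, e1f2, f1e2, f1f2]
    simp [h11]
  · intro z hz k1 k2 k3
    obtain ⟨α1, β1, α2, β2, rfl⟩ := hexp z hz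
    rw [Q_add_eq, Q_add_eq, Q_add_eq] at k3
    simp only [QuadraticMap.map_smul, Qe1, Qf1, Qe2, Qf2, polar_add_left, polar_add_right,
      polar_smul_left, polar_smul_right, e1e1, f1f1, e2e2, f2f2, f1e1, f2e2, e2e1, f2e1, e2f1,
      f2f1, e1f1, e2f2, e1e2, e1f2, f1e2, f1f2, smul_eq_mul, mul_zero, mul_one, add_zero,
      zero_add] at k1 k2 k3
    rcases h01F α1 with rfl | rfl <;> rcases h01F β1 with rfl | rfl <;>
    rcases h01F α2 with rfl | rfl <;> rcases h01F β2 with rfl | rfl <;>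
    simp [h11] at k1 k2 k3 ⊢

theorem o4Pl_of_plus (hq : Fintype.card F = 2) {D : Submodule F V} (h : NDon Q D)
    (hd : finrank F D = 4)
    (hs : ∃ U : Submodule F V, U ≤ D ∧ (∀ u ∈ U, Q u = 0) ∧ finrank F U = 2) : O4Pl Q D := by
  have h2 := two_eq_zero_of_card_two hq
  have h11 : (1 : F) + 1 = 0 := by rw [one_add_one_eq_two, h2]
  have h01F : ∀ s : F, s = 0 ∨ s = 1 := fun s => by
    by_cases hs : s = 0
    · exact Or.inl hs
    · exact Or.inr (eq_one_of_card_two hq hs)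
  obtain ⟨U, hUD, hU0, hU2⟩ := hs
  haveI : Module.Finite F U := Module.finite_of_finrank_pos (by rw [hU2]; norm_num)
  let b := Module.finBasisOfFinrankEq F U hU2
  obtain ⟨e1, he1⟩ : ∃ e1 : V, e1 = (b 0 : V) := ⟨_, rfl⟩
  obtain ⟨e2, he2⟩ : ∃ e2 : V, e2 = (b 1 : V) := ⟨_, rfl⟩
  have e1U : e1 ∈ U := he1 ▸ (b 0).2
  have e2U : e2 ∈ U := he2 ▸ (b 1).2
  have hind : ∀ s s' : F, s • e1 + s' • e2 = 0 → s = 0 ∧ s' = 0 := by
    intro s s' hss
    have hli := b.linearIndependent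
    rw [Fintype.linearIndependent_iff] at hli
    have := hli ![s, s'] (by
      rw [Fin.sum_univ_two]
      apply Subtype.ext
      simpa [he1, he2] using hss)
    exact ⟨this 0, this 1⟩
  have e1n : e1 ≠ 0 := by
    intro h0
    have := (hind 1 0 (by rw [h0]; simp)).1
    exact one_ne_zero this
  have e2n : e2 ≠ 0 := by
    intro h0
    have := (hind 0 1 (by rw [h0]; simp)).2
    exact one_ne_zero this
  have e12n : e1 + e2 ≠ 0 := by
    intro h0
    have := (hind 1 1 (by simpa using h0)).1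
    exact one_ne_zero this
  have Qe1 := hU0 e1 e1U
  have Qe2 := hU0 e2 e2U
  have e1e2 : polar Q e1 e2 = 0 := by
    simp only [polar, hU0 _ (U.add_mem e1U e2U), Qe1, Qe2, sub_zero]
  have e2e1 : polar Q e2 e1 = 0 := by rw [polar_comm]; exact e1e2
  have e1e1 : polar Q e1 e1 = 0 := by rw [polar_self, Qe1]; simp
  have e2e2 : polar Q e2 e2 = 0 := by rw [polar_self, Qe2]; simp
  have e1D := hUD e1U
  have e2D := hUD e2U
  -- dual vectors
  obtain ⟨f1, f1D, f2, f2D, e1f1, e2f1, e1f2, e2f2⟩ : ∃ f1 ∈ D, ∃ f2 ∈ D, polar Q e1 f1 = 1 ∧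
      polar Q e2 f1 = 0 ∧ polar Q e1 f2 = 0 ∧ polar Q e2 f2 = 1 := by
    obtain ⟨y1, y1D, hy1⟩ := h e1 e1D e1n
    obtain ⟨y2, y2D, hy2⟩ := h e2 e2D e2n
    obtain ⟨y3, y3D, hy3⟩ := h (e1 + e2) (D.add_mem e1D e2D) e12n
    have hy1' := eq_one_of_card_two hq hy1
    have hy2' := eq_one_of_card_two hq hy2
    have hy3' := eq_one_of_card_two hq hy3
    rw [polar_add_left] at hy3'
    rcases h01F (polar Q e1 y3) with k | k
    · -- φ y3 = (0,1)
      have k' : polar Q e2 y3 = 1 := by rw [k, zero_add] at hy3'; exact hy3'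
      refine ⟨y1 - polar Q e2 y1 • y3, D.sub_mem y1D (D.smul_mem _ y3D), y3, y3D, ?_, ?_, k, k'⟩
      · rw [polar_sub_right, polar_smul_right, k, hy1']; simp
      · rw [polar_sub_right, polar_smul_right, k']; simp
    · have k' : polar Q e2 y3 = 0 := by
        rw [k] at hy3'
        linear_combination hy3'
      refine ⟨y3, y3D, y2 - polar Q e1 y2 • y3, D.sub_mem y2D (D.smul_mem _ y3D), k, k', ?_, ?_⟩
      · rw [polar_sub_right, polar_smul_right, k]; simp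
      · rw [polar_sub_right, polar_smul_right, k', hy2']; simp
  -- make them singular
  obtain ⟨g1, hg1⟩ : ∃ g1, g1 = f1 + Q f1 • e1 := ⟨_, rfl⟩
  obtain ⟨g2, hg2⟩ : ∃ g2, g2 = f2 + Q f2 • e2 := ⟨_, rfl⟩
  have g1D : g1 ∈ D := hg1 ▸ D.add_mem f1D (D.smul_mem _ e1D)
  have g2D : g2 ∈ D := hg2 ▸ D.add_mem f2D (D.smul_mem _ e2D)
  have Qg1 : Q g1 = 0 := by
    rw [hg1, Q_add_eq, QuadraticMap.map_smul, Qe1, polar_smul_right, polar_comm, e1f1]
    simp only [smul_eq_mul, mul_zero, mul_one, add_zero]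
    linear_combination Q f1 * h11
  have Qg2 : Q g2 = 0 := by
    rw [hg2, Q_add_eq, QuadraticMap.map_smul, Qe2, polar_smul_right, polar_comm, e2f2]
    simp only [smul_eq_mul, mul_zero, mul_one, add_zero]
    linear_combination Q f2 * h11
  have e1g1 : polar Q e1 g1 = 1 := by
    rw [hg1, polar_add_right, polar_smul_right, e1f1, e1e1]; simp
  have e2g1 : polar Q e2 g1 = 0 := by
    rw [hg1, polar_add_right, polar_smul_right, e2f1, e2e1]; simp
  have e1g2 : polar Q e1 g2 = 0 := by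
    rw [hg2, polar_add_right, polar_smul_right, e1f2, e1e2]; simp
  have e2g2 : polar Q e2 g2 = 1 := by
    rw [hg2, polar_add_right, polar_smul_right, e2f2, e2e2]; simp
  obtain ⟨k2, hk2⟩ : ∃ k2, k2 = g2 + polar Q g1 g2 • e1 := ⟨_, rfl⟩
  have k2D : k2 ∈ D := hk2 ▸ D.add_mem g2D (D.smul_mem _ e1D)
  have Qk2 : Q k2 = 0 := by
    rw [hk2, Q_add_eq, QuadraticMap.map_smul, Qe1, Qg2, polar_smul_right, polar_comm Q g2 e1, e1g2]
    simp
  have e1k2 : polar Q e1 k2 = 0 := by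
    rw [hk2, polar_add_right, polar_smul_right, e1g2, e1e1]; simp
  have e2k2 : polar Q e2 k2 = 1 := by
    rw [hk2, polar_add_right, polar_smul_right, e2g2, e2e1]; simp
  have g1k2 : polar Q g1 k2 = 0 := by
    rw [hk2, polar_add_right, polar_smul_right, polar_comm Q g1 e1, e1g1]
    simp only [smul_eq_mul, mul_one]
    linear_combination polar Q g1 g2 * h11
  exact o4Pl_of_hyp hq hd e1D g1D e2D k2D Qe1 Qg1 Qe2 Qk2 e1g1 e2k2 e1e2 e1k2
    (by rw [polar_comm]; exact e2g1) g1k2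

end Cfsg.Agent.Lib.Helper97.OD7
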