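import Cfsg.Agent.Lib.Helper97.OD7.Defs

set_option autoImplicit false

namespace Cfsg.Agent.Lib.Helper97.OD7

open QuadraticMap Module
open Cfsg.Agent.Lib.Helper95 (omG)
open Cfsg.Agent.Lib.Helper49

variable {F V : Type*} [Field F] [AddCommGroup V] [Module F V]
  {Q : QuadraticForm F V}

theorem hypPl_of_sing {D : Submodule F V} (h : NDon Q D) (hd : finrank F D = 2)
    (hs : ∃ x ∈ D, x ≠ 0 ∧ Q x = 0) : HypPl Q D := by
  obtain ⟨x, hx, hx0, hQx⟩ := hs
  obtain ⟨y, hy, hxy⟩ := h x hx hx0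
  obtain ⟨y', hy'⟩ : ∃ y', y' = (polar Q x y)⁻¹ • y := ⟨_, rfl⟩
  have hy'D : y' ∈ D := hy' ▸ D.smul_mem _ hy
  have hxy' : polar Q x y' = 1 := by
    rw [hy', polar_smul_right, smul_eq_mul, inv_mul_cancel₀ hxy]
  obtain ⟨f, hf⟩ : ∃ f, f = y' - Q y' • x := ⟨_, rfl⟩
  have hfD : f ∈ D := hf ▸ D.sub_mem hy'D (D.smul_mem _ hx)
  have hxx : polar Q x x = 0 := by rw [polar_self, hQx]; simp
  have hxf : polar Q x f = 1 := by
    rw [hf, polar_sub_right, polar_smul_right, hxx, hxy']; simp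
  have hQf : Q f = 0 := by
    rw [hf, Q_sub_smul, hQx, hxy']; ring
  have hff : polar Q f f = 0 := by rw [polar_self, hQf]; simp
  have hfx : polar Q f x = 1 := by rw [polar_comm]; exact hxf
  refine ⟨x, hx, f, hfD, hQx, hQf, hxf, ?_⟩
  -- linear independence in the subtype
  have hli : LinearIndependent F ![(⟨x, hx⟩ : D), ⟨f, hfD⟩] := by
    rw [LinearIndependent.pair_iff]
    intro s t hst
    have h1 : s • x + t • f = 0 := congrArg Subtype.val hst
    have h2 : polar Q (s • x + t • f) f = 0 := by rw [h1]; simp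
    have h3 : polar Q (s • x + t • f) x = 0 := by rw [h1]; simp
    rw [polar_add_left, polar_smul_left, polar_smul_left, hxf, hff] at h2
    rw [polar_add_left, polar_smul_left, polar_smul_left, hxx, hfx] at h3
    simp only [smul_eq_mul, mul_one, mul_zero, add_zero, zero_add] at h2 h3
    exact ⟨h2, h3⟩
  have hspan := hli.span_eq_top_of_card_eq_finrank (by simp [hd])
  intro z hz
  have hzm : (⟨z, hz⟩ : D) ∈ Submodule.span F (Set.range ![(⟨x, hx⟩ : D), ⟨f, hfD⟩]) := by
    rw [hspan]; trivial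
  rw [Matrix.range_cons, Matrix.range_cons, Matrix.range_empty, Set.union_empty,
    Set.singleton_union, Submodule.mem_span_pair] at hzm
  obtain ⟨α, β, hαβ⟩ := hzm
  exact ⟨α, β, (congrArg Subtype.val hαβ).symm⟩

end Cfsg.Agent.Lib.Helper97.OD7
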