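import Cfsg.Agent.Lib.Helper97.OD7.Defs

/-! OD7: a table of polar values for a family of orthogonal hyperbolic planes. -/

set_option autoImplicit false

namespace Cfsg.Agent.Lib.Helper97.OD7

open QuadraticMap Module
open Cfsg.Agent.Lib.Helper49

variable {F V : Type*} [Field F] [AddCommGroup V] [Module F V]

structure HTab (Q : QuadraticForm F V) {t : ℕ} (D : Fin t → Submodule F V) (e f : Fin t → V) :
    Prop where
  he : ∀ i, e i ∈ D i
  hf : ∀ i, f i ∈ D i
  Qe : ∀ i, Q (e i) = 0
  Qf : ∀ i, Q (f i) = 0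
  ee : ∀ i j, polar Q (e i) (e j) = 0
  ff : ∀ i j, polar Q (f i) (f j) = 0
  ef : ∀ i j, polar Q (e i) (f j) = if i = j then 1 else 0
  fe : ∀ i j, polar Q (f i) (e j) = if i = j then 1 else 0
  sp : ∀ i, ∀ z ∈ D i, ∃ α β : F, z = α • e i + β • f i

variable {Q : QuadraticForm F V}

theorem exists_HTab {t : ℕ} {D : Fin t → Submodule F V}
    (horth : ∀ i j, i ≠ j → ∀ u ∈ D i, ∀ v ∈ D j, polar Q u v = 0)
    (hh : ∀ i, HypPl Q (D i)) : ∃ e f : Fin t → V, HTab Q D e f := by
  choose e he f hf hQe hQf hef hsp using hh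
  refine ⟨e, f, he, hf, hQe, hQf, ?_, ?_, ?_, ?_, hsp⟩
  · intro i j
    by_cases hij : i = j
    · subst hij; rw [polar_self, hQe]; simp
    · exact horth i j hij _ (he i) _ (he j)
  · intro i j
    by_cases hij : i = j
    · subst hij; rw [polar_self, hQf]; simp
    · exact horth i j hij _ (hf i) _ (hf j)
  · intro i j
    by_cases hij : i = j
    · subst hij; rw [hef]; simp
    · rw [if_neg hij]; exact horth i j hij _ (he i) _ (hf j)
  · intro i j
    by_cases hij : i = j
    · subst hij; rw [polar_comm, hef]; simp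
    · rw [if_neg hij]; exact horth i j hij _ (hf i) _ (he j)

theorem HTab.Q_comb {t : ℕ} {D : Fin t → Submodule F V} {e f : Fin t → V} (T : HTab Q D e f)
    (i : Fin t) (α β : F) : Q (α • e i + β • f i) = α * β := by
  rw [Q_add_eq, QuadraticMap.map_smul, QuadraticMap.map_smul, T.Qe, T.Qf, polar_smul_left,
    polar_smul_right, T.ef]
  simp

theorem HTab.comb_mem {t : ℕ} {D : Fin t → Submodule F V} {e f : Fin t → V} (T : HTab Q D e f)
    (i : Fin t) (α β : F) : α • e i + β • f i ∈ D i :=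
  (D i).add_mem ((D i).smul_mem _ (T.he i)) ((D i).smul_mem _ (T.hf i))

end Cfsg.Agent.Lib.Helper97.OD7
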